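import Mathlib
import Cfsg.Agent.Lib.Helper12.KS.Defs

/-!
# S0518 package [SylA]

An element of a 2-group `S ≥ T` that normalizes `T` and is not in `T` swaps `Q₁`, `Q₂`.
-/

set_option autoImplicit false

universe u

namespace Cfsg.Agent.Lib.Helper29.KS

open Cfsg Cfsg.Agent.Lib.Helper12.KS

section
variable {G : Type u} [Group G]

theorem mem_conjMap {x : G} {Q : Subgroup G} {y : G} :
    y ∈ Q.map (MulAut.conj x).toMonoidHom ↔ ∃ q ∈ Q, x * q * x⁻¹ = y := by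
  constructor
  · rintro ⟨q, hq, rfl⟩
    exact ⟨q, hq, rfl⟩
  · rintro ⟨q, hq, rfl⟩
    exact ⟨q, hq, rfl⟩

theorem conj_mem_conjMap {x : G} {Q : Subgroup G} {q : G} (hq : q ∈ Q) :
    x * q * x⁻¹ ∈ Q.map (MulAut.conj x).toMonoidHom :=
  mem_conjMap.mpr ⟨q, hq, rfl⟩

theorem card_conjMap [Finite G] (x : G) (Q : Subgroup G) :
    Nat.card ↥(Q.map (MulAut.conj x).toMonoidHom) = Nat.card ↥Q :=
  Subgroup.card_map_of_injective (MulAut.conj x).injective

theorem exp_conjMap {x : G} {Q : Subgroup G} (hQ : ∀ q ∈ Q, q * q = 1) :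
    ∀ a ∈ Q.map (MulAut.conj x).toMonoidHom, a * a = 1 := by
  intro a ha
  obtain ⟨q, hq, rfl⟩ := mem_conjMap.mp ha
  have h1 : x * q * x⁻¹ * (x * q * x⁻¹) = x * (q * q) * x⁻¹ := by group
  rw [h1, hQ q hq, mul_one, mul_inv_cancel]

end

/-- **[SylA]** -/
theorem pkgSylA (hO1 : PkgO1.{u}) (hNrm : PkgNrm.{u}) (hInv : PkgInv.{u}) (hSP : PkgSP.{u}) :
    PkgSylA.{u} := by
  intro G _ _ P₁ P₂ T Q₁ Q₂ W₁ W₂ c₁ c₂ hB S hS hTS x hxS hxT hxN
  have b1 := hO1 hB.side₁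
  have b2 := hO1 hB.side₂
  have inv := hInv hB
  have n1 := (hNrm hB.max₁ hB.side₁).1
  have n2 := (hNrm hB.max₂ hB.side₂).1
  have sp1 := hSP hB S hS hTS
  have sp2 := hSP hB.symm S hS hTS
  have key : ∀ (Q P : Subgroup G), Subgroup.normalizer (Q : Set G) = P → S ⊓ P = T →
      Q.map (MulAut.conj x).toMonoidHom ≠ Q := by
    intro Q P hn hsp hE
    have hx : x ∈ Subgroup.normalizer (Q : Set G) := by
      apply Subgroup.mem_normalizer_fintype
      intro q hq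
      have h1 := conj_mem_conjMap (x := x) hq
      rw [hE] at h1
      exact h1
    rw [hn] at hx
    have h2 : x ∈ S ⊓ P := ⟨hxS, hx⟩
    rw [hsp] at h2
    exact hxT h2
  have e8 : ∀ Q : Subgroup G, Q ≤ T → Nat.card ↥Q = 8 → (∀ q ∈ Q, q * q = 1) →
      Q.map (MulAut.conj x).toMonoidHom = Q₁ ∨ Q.map (MulAut.conj x).toMonoidHom = Q₂ := by
    intro Q hQT hcard hexp
    apply inv.e8
    · intro y hy
      obtain ⟨q, hq, rfl⟩ := mem_conjMap.mp hy
      exact hxN q (hQT hq)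
    · rw [card_conjMap, hcard]
    · exact exp_conjMap hexp
  constructor
  · intro q hq
    rcases e8 Q₁ b1.Q_le_T b1.card_Q b1.Q_sq with h | h
    · exact absurd h (key Q₁ P₁ n1 sp1)
    · rw [← h]
      exact conj_mem_conjMap hq
  · intro q hq
    rcases e8 Q₂ b2.Q_le_T b2.card_Q b2.Q_sq with h | h
    · rw [← h]
      exact conj_mem_conjMap hq
    · exact absurd h (key Q₂ P₂ n2 sp2)

end Cfsg.Agent.Lib.Helper29.KS
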