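import Mathlib
import Cfsg.Agent.Lib.Helper12.KS.Defs
import Cfsg.Agent.Lib.Helper29.KS.SylA

/-!
# S0518 package [SylB]

Elementary abelian subgroups of order 8 of `N_S(T)` lie in `T`.
-/

set_option autoImplicit false

universe u

namespace Cfsg.Agent.Lib.Helper29.KS

open Cfsg Cfsg.Agent.Lib.Helper12.KS

/-- **[SylB]** -/
theorem pkgSylB (hO1 : PkgO1.{u}) (hT : PkgT.{u}) (hW : PkgW.{u}) (hInv : PkgInv.{u})
    (hMap : PkgMap.{u}) (hNrm : PkgNrm.{u}) (hSP : PkgSP.{u}) (hSylA : PkgSylA.{u}) :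
    PkgSylB.{u} := by
  intro G _ _ P₁ P₂ T Q₁ Q₂ W₁ W₂ c₁ c₂ hB S hS hTS E hES hEN hcard hexp
  classical
  by_contra hET
  obtain ⟨y, hyE, hyT⟩ := SetLike.not_le_iff_exists.mp hET
  obtain ⟨w, hw⟩ := hW hB
  have inv := hInv hB
  obtain ⟨-, -, -, hc12⟩ := hT hB
  have n1 := (hNrm hB.max₁ hB.side₁).1
  have sp1 := hSP hB S hS hTS
  have hinvE : ∀ a ∈ E, a⁻¹ = a := fun a ha => inv_eq_of_mul_eq_one_right (hexp a ha)
  have hcomm : ∀ a ∈ E, ∀ b ∈ E, a * b = b * a := by
    intro a ha b hb
    have h1 : (a * b)⁻¹ = a * b := hinvE _ (E.mul_mem ha hb)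
    rw [mul_inv_rev, hinvE a ha, hinvE b hb] at h1
    exact h1.symm
  have hy := hSylA hB S hS hTS y (hES hyE) hyT (hEN y hyE)
  have m12 := hMap hB y hy.1
  have m21 := hMap hB.symm y hy.2
  have hF : ∀ f ∈ E, f ∈ T → f = 1 ∨ f = w := by
    intro f hfE hfT
    have hyf : y * f * y⁻¹ = f := by rw [hcomm y hyE f hfE, mul_inv_cancel_right]
    have hfQ : f ∈ Q₁ ∧ f ∈ Q₂ := by
      rcases inv.invol f hfT (hexp f hfE) with h1 | h2
      · refine ⟨h1, ?_⟩
        have h3 := hy.1 f h1
        rwa [hyf] at h3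
      · refine ⟨?_, h2⟩
        have h3 := hy.2 f h2
        rwa [hyf] at h3
    rcases hw.inter_Q f hfQ.1 hfQ.2 with h | h | h | h
    · exact Or.inl h
    · exact Or.inr h
    · exfalso
      rw [h] at hyf
      exact hc12 (hyf.symm.trans m12.c)
    · exfalso
      rw [h] at hyf
      exact hc12 (m21.c.symm.trans hyf)
  have hsub : (E : Set G) ⊆ (({1, w, y, y * w} : Finset G) : Set G) := by
    intro a haE
    rw [Finset.mem_coe, Finset.mem_insert, Finset.mem_insert, Finset.mem_insert,
      Finset.mem_singleton]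
    by_cases haT : a ∈ T
    · rcases hF a haE haT with h | h
      · exact Or.inl h
      · exact Or.inr (Or.inl h)
    · have hya : y * a ∈ E := E.mul_mem hyE haE
      have hyaT : y * a ∈ T := by
        have ha := hSylA hB S hS hTS a (hES haE) haT (hEN a haE)
        have hnorm : y * a ∈ Subgroup.normalizer (Q₁ : Set G) := by
          apply Subgroup.mem_normalizer_fintype
          intro q hq
          have h1 := hy.2 _ (ha.1 q hq)
          have h2 : y * a * q * (y * a)⁻¹ = y * (a * q * a⁻¹) * y⁻¹ := by group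
          rw [h2]
          exact h1
        rw [n1] at hnorm
        have h3 : y * a ∈ S ⊓ P₁ := ⟨hES hya, hnorm⟩
        rwa [sp1] at h3
      rcases hF (y * a) hya hyaT with h | h
      · right; right; left
        have h3 : a = y⁻¹ := eq_inv_of_mul_eq_one_right h
        rw [h3, hinvE y hyE]
      · right; right; right
        have h3 : a = y⁻¹ * w := by rw [← h, inv_mul_cancel_left]
        rw [h3, hinvE y hyE]
  have hle : Nat.card ↥E ≤ 4 := by
    have h1 : Nat.card ↥E = (E : Set G).ncard := Nat.card_coe_set_eq (E : Set G)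
    rw [h1]
    calc (E : Set G).ncard ≤ (({1, w, y, y * w} : Finset G) : Set G).ncard :=
          Set.ncard_le_ncard hsub (Finset.finite_toSet _)
      _ = ({1, w, y, y * w} : Finset G).card := Set.ncard_coe_finset _
      _ ≤ 4 := Finset.card_le_four
  omega

end Cfsg.Agent.Lib.Helper29.KS
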