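import Mathlib
import Cfsg.Agent.Lib.Helper12.KS.Defs
import Cfsg.Agent.Lib.Helper29.KS.SylA
import Cfsg.Agent.Lib.Helper90.IndexAux

/-!
# S0518 package [SylC]

`T` is normal in every 2-subgroup containing it.
-/

set_option autoImplicit false

universe u

namespace Cfsg.Agent.Lib.Helper29.KS

open Cfsg Cfsg.Agent.Lib.Helper12.KS

/-- **[SylC]** -/
theorem pkgSylC (hO1 : PkgO1.{u}) (hInv : PkgInv.{u}) (hSylB : PkgSylB.{u}) : PkgSylC.{u} := by
  intro G _ _ P₁ P₂ T Q₁ Q₂ W₁ W₂ c₁ c₂ hB S hS hTS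
  haveI : Fact (Nat.Prime 2) := ⟨Nat.prime_two⟩
  have b1 := hO1 hB.side₁
  have b2 := hO1 hB.side₂
  have inv := hInv hB
  obtain ⟨N, hN⟩ : ∃ N : Subgroup G, N = Subgroup.normalizer (T : Set G) ⊓ S := ⟨_, rfl⟩
  have hTN : T ≤ N := by
    rw [hN]
    exact le_inf Subgroup.le_normalizer hTS
  have hNS : N ≤ S := by
    rw [hN]
    exact inf_le_right
  have hNT : ∀ a ∈ N, ∀ t ∈ T, a * t * a⁻¹ ∈ T := by
    intro a ha t ht
    rw [hN] at ha
    exact (Subgroup.mem_normalizer_iff.mp ha.1 t).mp ht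
  have hNeq : N = S := by
    by_contra hne
    obtain ⟨s, hsS, hsN, hsnorm⟩ :=
      Cfsg.Agent.Lib.Helper90.exists_normalizing_not_mem 2 S N hS hNS hne
    apply hsN
    have hconj : ∀ Q : Subgroup G, Q ≤ T → Nat.card ↥Q = 8 → (∀ q ∈ Q, q * q = 1) →
        ∀ q ∈ Q, s * q * s⁻¹ ∈ T := by
      intro Q hQT hcard hexp q hq
      have hEN : Q.map (MulAut.conj s).toMonoidHom ≤ N := by
        intro y hy
        obtain ⟨q', hq', rfl⟩ := mem_conjMap.mp hy
        exact (Subgroup.mem_normalizer_iff.mp hsnorm q').mp (hTN (hQT hq'))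
      have hET : Q.map (MulAut.conj s).toMonoidHom ≤ T :=
        hSylB hB S hS hTS _ (hEN.trans hNS) (fun a ha => hNT a (hEN ha))
          (by rw [card_conjMap, hcard]) (exp_conjMap hexp)
      exact hET (conj_mem_conjMap hq)
    have hmap : (Q₁ ⊔ Q₂).map (MulAut.conj s).toMonoidHom ≤ T := by
      rw [Subgroup.map_sup]
      refine sup_le ?_ ?_
      · intro y hy
        obtain ⟨q, hq, rfl⟩ := mem_conjMap.mp hy
        exact hconj Q₁ b1.Q_le_T b1.card_Q b1.Q_sq q hq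
      · intro y hy
        obtain ⟨q, hq, rfl⟩ := mem_conjMap.mp hy
        exact hconj Q₂ b2.Q_le_T b2.card_Q b2.Q_sq q hq
    rw [inv.sup] at hmap
    have hsT : s ∈ Subgroup.normalizer (T : Set G) := by
      apply Subgroup.mem_normalizer_fintype
      intro t ht
      exact hmap (conj_mem_conjMap ht)
    rw [hN]
    exact ⟨hsT, hsS⟩
  intro s hs t ht
  exact hNT s (by rw [hNeq]; exact hs) t ht

end Cfsg.Agent.Lib.Helper29.KS
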